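import Cfsg.Agent.S0205
import Cfsg.Agent.ODD.AuxH40a

/-! # There is no minimal simple group of odd order -/

set_option autoImplicit false

namespace CL.BG

open Cfsg

theorem no_minSimpleOdd {G : Type*} [Group G] [Finite G] (hG : IsMinSimpleOddOrder G) : False :=
  H40.not_sol hG (Cfsg.Agent.S0205.result hG.1)

end CL.BG
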